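import Cfsg.Agent.Lib.BrauerCharacters.PRegular
import Cfsg.Agent.Lib.BlockLocal.HeightZero
import Cfsg.Agent.Lib.ZerosCodegree.CharBasics

/-!
The integers `z χ ψ` with `∑_{g p-regular} χ g * ψ g⁻¹ = z * (|G| / p^a)`, their quadratic identity,
and the resulting divisibility of degrees inside a block with a character of defect at most one.
-/

set_option autoImplicit false

namespace CfsgLib.ZerosCodegree

open Cfsg CfsgLib.CharTheory CfsgLib.BlockLocal CfsgLib.BrauerCharacters Finset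
open scoped ComplexConjugate

variable {G : Type*} [Group G] [Fintype G] (p : ℕ) [hp : Fact p.Prime]

theorem sum_pRegWeight_mul (χ ψ : IrrCharacter G) :
    ∑ g : G, (pRegWeight p G g : ℂ) * ((χ : G → ℂ) g * (ψ : G → ℂ) g⁻¹) =
      (p : ℂ) ^ (Nat.card G).factorization p * pairReg p (χ : G → ℂ) (ψ : G → ℂ) := by
  rw [pairReg, mul_sum]
  refine sum_congr rfl fun g _ => ?_
  unfold pRegWeight regInv
  split_ifs <;> push_cast <;> ring

/-- The regular pairing is an integral multiple of the `p'`-part of the group order. -/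
theorem exists_int_pairReg (χ ψ : IrrCharacter G) :
    ∃ z : ℤ, (p : ℂ) ^ (Nat.card G).factorization p * pairReg p (χ : G → ℂ) (ψ : G → ℂ) =
      z * (Nat.card G : ℂ) := by
  obtain ⟨z, hz⟩ := exists_int_sum_pRegWeight (G := G) p
    (θ := fun g => (χ : G → ℂ) g * (ψ : G → ℂ) g⁻¹) (fun g x => by
      show (χ : G → ℂ) (x * g * x⁻¹) * (ψ : G → ℂ) (x * g * x⁻¹)⁻¹ = _
      rw [IsIrrCharacter.isClassFunction χ.2 g x, show (x * g * x⁻¹)⁻¹ = x * g⁻¹ * x⁻¹ by group,
        IsIrrCharacter.isClassFunction ψ.2 g⁻¹ x]) (fun U _ => by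
      obtain ⟨z, hz⟩ := exists_classInner_eq_int
        (IsCharacter.isGeneralizedCharacter (CfsgLib.Brauer.isCharacter_res (IsIrrCharacter.isCharacter χ.2) U))
        (IsCharacter.isGeneralizedCharacter (CfsgLib.Brauer.isCharacter_res (IsIrrCharacter.isCharacter ψ.2) U))
      refine ⟨z, ?_⟩
      rw [classInner, inv_mul_eq_iff_eq_mul₀ (Nat.cast_ne_zero.2 Nat.card_pos.ne')] at hz
      rw [mul_comm, ← hz]
      exact sum_congr rfl fun u _ => by rw [IsIrrCharacter.inv ψ.2])
  exact ⟨z, (sum_pRegWeight_mul p χ ψ).symm.trans hz⟩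

/-- The integer `z χ ψ`. -/
noncomputable def regInt (χ ψ : IrrCharacter G) : ℤ := (exists_int_pairReg p χ ψ).choose

theorem regInt_spec (χ ψ : IrrCharacter G) :
    (p : ℂ) ^ (Nat.card G).factorization p * pairReg p (χ : G → ℂ) (ψ : G → ℂ) =
      regInt p χ ψ * (Nat.card G : ℂ) := (exists_int_pairReg p χ ψ).choose_spec

theorem regInt_comm (χ ψ : IrrCharacter G) : regInt p χ ψ = regInt p ψ χ := by
  have h := (regInt_spec p χ ψ).symm.trans
    ((congrArg ((p : ℂ) ^ (Nat.card G).factorization p * ·) (pairReg_comm p _ _)).trans (regInt_spec p ψ χ))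
  exact_mod_cast mul_right_cancel₀ (Nat.cast_ne_zero.2 Nat.card_pos.ne') h

theorem pairReg_eq (χ ψ : IrrCharacter G) : pairReg p (χ : G → ℂ) (ψ : G → ℂ) =
    ((regInt p χ ψ * (Nat.card G / p ^ (Nat.card G).factorization p : ℕ) : ℤ) : ℂ) := by
  have h := regInt_spec p χ ψ
  refine mul_left_cancel₀ (pow_ne_zero _ (Nat.cast_ne_zero.2 hp.out.ne_zero)) (h.trans ?_)
  rw [Int.cast_mul, Int.cast_natCast]
  conv_lhs => rw [← Nat.ordProj_mul_ordCompl_eq_self (Nat.card G) p]
  rw [Nat.cast_mul, Nat.cast_pow]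
  ring

/-- The quadratic identity `∑ ψ, z χ ψ ^ 2 = p^a * z χ χ`. -/
theorem sum_regInt_sq [Fintype (IrrCharacter G)] (χ : IrrCharacter G) :
    ∑ ψ : IrrCharacter G, regInt p χ ψ ^ 2 =
      (p : ℤ) ^ (Nat.card G).factorization p * regInt p χ χ := by
  set f : G → ℂ := fun g => (pRegWeight p G g : ℂ) * (χ : G → ℂ) g with hf
  have hcl : IsClassFunction G f := fun g x => by
    simp only [hf]
    rw [IsIrrCharacter.isClassFunction χ.2 g x]
    unfold pRegWeight
    rw [show orderOf (x * g * x⁻¹) = orderOf g from (MulAut.conj x).orderOf_eq g]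
  have hcoef : ∀ ψ : IrrCharacter G, classInner f (ψ : G → ℂ) = (regInt p χ ψ : ℂ) := fun ψ => by
    rw [classInner, inv_mul_eq_iff_eq_mul₀ (Nat.cast_ne_zero.2 Nat.card_pos.ne'), mul_comm,
      ← regInt_spec p χ ψ, ← sum_pRegWeight_mul p χ ψ]
    exact sum_congr rfl fun g _ => by rw [hf, IsIrrCharacter.inv ψ.2, mul_assoc]
  have hexp := eq_sum_classInner hcl
  simp only [hcoef] at hexp
  have h1 : classInner f f = ((∑ ψ : IrrCharacter G, regInt p χ ψ * regInt p χ ψ : ℤ) : ℂ) := by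
    conv_lhs => rw [hexp]
    exact classInner_generalized_sum _ _
  have h2 : classInner f f = (((p : ℤ) ^ (Nat.card G).factorization p * regInt p χ χ : ℤ) : ℂ) := by
    push_cast
    rw [classInner, inv_mul_eq_iff_eq_mul₀ (Nat.cast_ne_zero.2 Nat.card_pos.ne'), mul_comm,
      mul_assoc, ← regInt_spec p χ χ, ← sum_pRegWeight_mul p χ χ, mul_sum]
    refine sum_congr rfl fun g _ => ?_
    simp only [hf, IsIrrCharacter.inv χ.2, map_mul, Complex.conj_ofReal, map_intCast]
    unfold pRegWeight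
    split_ifs <;> push_cast <;> ring
  rw [h1] at h2
  simp only [pow_two]
  exact_mod_cast h2

theorem pairReg_self_eq (χ : IrrCharacter G) : pairReg p (χ : G → ℂ) (χ : G → ℂ) =
    ((∑ g : G, if p ∣ orderOf g then 0 else ‖(χ : G → ℂ) g‖ ^ 2 : ℝ) : ℂ) := by
  rw [pairReg, Complex.ofReal_sum]
  refine sum_congr rfl fun g _ => ?_
  unfold regInv
  split_ifs
  · simp
  · rw [IsIrrCharacter.inv χ.2, mul_comm, Complex.mul_conj, Complex.normSq_eq_norm_sq]

theorem sum_norm_sq_eq (χ : IrrCharacter G) :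
    ∑ g : G, ‖(χ : G → ℂ) g‖ ^ 2 = (Nat.card G : ℝ) := by
  have h := classInner_self_of_isIrr χ.2
  rw [classInner, inv_mul_eq_iff_eq_mul₀ (Nat.cast_ne_zero.2 Nat.card_pos.ne'), mul_one] at h
  rw [← Complex.ofReal_inj, Complex.ofReal_natCast, ← h, Complex.ofReal_sum]
  exact sum_congr rfl fun g _ => by rw [Complex.mul_conj, Complex.normSq_eq_norm_sq]

theorem regInt_self_pos (χ : IrrCharacter G) : 0 < regInt p χ χ := by
  have h := regInt_spec p χ χ
  rw [pairReg_self_eq, ← Complex.ofReal_natCast (n := p), ← Complex.ofReal_pow, ← Complex.ofReal_mul,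
    ← Complex.ofReal_intCast, ← Complex.ofReal_natCast (n := Nat.card G), ← Complex.ofReal_mul,
    Complex.ofReal_inj] at h
  have hpos : 0 < ∑ g : G, if p ∣ orderOf g then (0 : ℝ) else ‖(χ : G → ℂ) g‖ ^ 2 :=
    sum_pos' (fun g _ => by split_ifs <;> positivity) ⟨1, mem_univ _, by
      rw [if_neg (by rw [orderOf_one]; exact hp.out.not_dvd_one)]
      have := norm_pos_iff.2 (apply_one_ne_zero_of_isIrr χ.2)
      positivity⟩
  have h3 : (0 : ℝ) < (regInt p χ χ : ℝ) * (Nat.card G : ℝ) := by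
    rw [← h]; exact mul_pos (pow_pos (Nat.cast_pos.2 hp.out.pos) _) hpos
  exact_mod_cast (pos_iff_pos_of_mul_pos h3).2 (Nat.cast_pos.2 Nat.card_pos)

theorem regInt_self_le (χ : IrrCharacter G) :
    regInt p χ χ ≤ (p : ℤ) ^ (Nat.card G).factorization p := by
  have h := regInt_spec p χ χ
  rw [pairReg_self_eq, ← Complex.ofReal_natCast (n := p), ← Complex.ofReal_pow, ← Complex.ofReal_mul,
    ← Complex.ofReal_intCast, ← Complex.ofReal_natCast (n := Nat.card G), ← Complex.ofReal_mul,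
    Complex.ofReal_inj] at h
  have hle : ∑ g : G, (if p ∣ orderOf g then (0 : ℝ) else ‖(χ : G → ℂ) g‖ ^ 2) ≤ (Nat.card G : ℝ) := by
    rw [← sum_norm_sq_eq χ]
    exact sum_le_sum fun g _ => by split_ifs <;> [positivity; exact le_rfl]
  have h3 : (regInt p χ χ : ℝ) * (Nat.card G : ℝ) ≤
      (p : ℝ) ^ (Nat.card G).factorization p * (Nat.card G : ℝ) := by
    rw [← h]; exact mul_le_mul_of_nonneg_left hle (by positivity)
  exact_mod_cast le_of_mul_le_mul_right h3 (Nat.cast_pos.2 Nat.card_pos)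

theorem apply_eq_zero_of_regInt_self_eq (χ : IrrCharacter G)
    (heq : regInt p χ χ = (p : ℤ) ^ (Nat.card G).factorization p) {g : G} (hg : p ∣ orderOf g) :
    (χ : G → ℂ) g = 0 := by
  have h := regInt_spec p χ χ
  rw [heq, Int.cast_pow, Int.cast_natCast] at h
  have h' := mul_left_cancel₀ (pow_ne_zero _ (Nat.cast_ne_zero.2 hp.out.ne_zero)) h
  rw [pairReg_self_eq, ← Complex.ofReal_natCast (n := Nat.card G), Complex.ofReal_inj,
    ← sum_norm_sq_eq χ, eq_comm, ← sub_eq_zero, ← sum_sub_distrib] at h'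
  have := (sum_eq_zero_iff_of_nonneg (fun x _ => by split_ifs <;> simp)).1 h' g (mem_univ g)
  rw [if_pos hg, sub_zero] at this
  simpa using this

/-- The pairing divided by the degree is a rational integer. -/
theorem degree_dvd_regInt_mul (χ ψ : IrrCharacter G) :
    (charDegree (χ : G → ℂ) : ℤ) ∣
      regInt p χ ψ * (Nat.card G / p ^ (Nat.card G).factorization p : ℕ) := by
  obtain ⟨n, ρ, hρ, hc⟩ := χ.2
  have h := isIntegral_sum_mul_character_div ρ
    (a := regInv p (ψ : G → ℂ)) (isClassFunction_regInv (IsIrrCharacter.isClassFunction ψ.2)) (fun g => by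
      unfold regInv
      split_ifs
      · exact isIntegral_zero
      · exact IsCharacter.isIntegral (IsIrrCharacter.isCharacter ψ.2) _)
  have hd : (Module.finrank ℂ (Fin n → ℂ) : ℂ) = (charDegree (χ : G → ℂ) : ℂ) := by
    rw [← irr_apply_one_eq, ← hc, ρ.char_one]
  rw [hd, hc, show (∑ g, regInv p (ψ : G → ℂ) g * (χ : G → ℂ) g) =
    pairReg p (χ : G → ℂ) (ψ : G → ℂ) from rfl, pairReg_eq] at h
  obtain ⟨q, hq⟩ := exists_int_of_isIntegral_ratCast
    (q := ((regInt p χ ψ * (Nat.card G / p ^ (Nat.card G).factorization p : ℕ) : ℤ) : ℚ) /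
      (charDegree (χ : G → ℂ) : ℚ)) (by convert h using 1; rw [Rat.cast_div, Rat.cast_intCast, Rat.cast_natCast])
  rw [eq_div_iff (Nat.cast_ne_zero.2 (charDegree_pos χ).ne')] at hq
  exact ⟨q, by exact_mod_cast hq.symm.trans (mul_comm _ _)⟩

/-- If `p^(a-1)` divides the degree of one member of a block, it divides that of every member. -/
theorem pow_dvd_degree_of_sameBlock {M : Ideal AlgInt} (hM : IsPModular p M)
    (hpa : p ∣ Nat.card G) {χ ψ : IrrCharacter G} (h : SameBlock M (χ : G → ℂ) (ψ : G → ℂ))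
    (hdiv : p ^ ((Nat.card G).factorization p - 1) ∣ charDegree (χ : G → ℂ)) :
    p ^ ((Nat.card G).factorization p - 1) ∣ charDegree (ψ : G → ℂ) := by
  classical
  haveI := CfsgLib.Blocks.isPrime_of_isPModular hM
  haveI := Fintype.ofFinite (IrrCharacter G)
  set a := (Nat.card G).factorization p with ha
  set d := a - 1 with hd
  set g' := Nat.card G / p ^ a with hg'
  have ha1 : 1 ≤ a := hp.out.factorization_pos_of_dvd Nat.card_pos.ne' hpa
  have hg'p : ¬ p ∣ g' := Nat.not_dvd_ordCompl hp.out Nat.card_pos.ne'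
  have hpZ : Prime (p : ℤ) := Nat.prime_iff_prime_int.mp hp.out
  have hcop : IsCoprime ((p : ℤ) ^ d) (g' : ℤ) :=
    IsCoprime.pow_left (hpZ.coprime_iff_not_dvd.mpr (by exact_mod_cast hg'p))
  have hdvd : ∀ η, (p : ℤ) ^ d ∣ regInt p χ η := fun η => by
    refine hcop.dvd_of_dvd_mul_right (Dvd.dvd.trans ?_ (degree_dvd_regInt_mul p χ η))
    exact_mod_cast hdiv
  choose n hn using hdvd
  have hsq : ∑ η, n η ^ 2 = (p : ℤ) * n χ := by
    have h1 := sum_regInt_sq p χ
    simp only [hn, mul_pow, ← mul_sum] at h1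
    rw [← ha, show (p : ℤ) ^ a * ((p : ℤ) ^ d * n χ) = ((p : ℤ) ^ d) ^ 2 * ((p : ℤ) * n χ) by
      rw [show a = d + 1 by omega, pow_succ]; ring] at h1
    exact mul_left_cancel₀ (pow_ne_zero _ (pow_ne_zero _ hpZ.ne_zero)) h1
  have hpos : 0 < n χ := by
    have := regInt_self_pos p χ
    rw [hn] at this
    exact pos_of_mul_pos_right this (by positivity)
  have hle : n χ ≤ p := by
    have := regInt_self_le p χ
    rw [hn, ← ha, show a = d + 1 by omega, pow_succ] at this
    exact le_of_mul_le_mul_left this (pow_pos (by exact_mod_cast hp.out.pos) _)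
  obtain ⟨s, hs⟩ := degree_dvd_regInt_mul p χ χ
  have hsn : ¬ (p : ℤ) ∣ s := by
    intro hps
    by_cases hnp : n χ = p
    · have hz : regInt p χ χ = (p : ℤ) ^ a := by
        rw [hn, hnp, ← pow_succ, show d + 1 = a by omega]
      obtain ⟨P⟩ := (inferInstance : Nonempty (Sylow p G))
      haveI := Fintype.ofFinite (P : Subgroup G)
      have hsum : ∑ u : (P : Subgroup G), (χ : G → ℂ) u = (χ : G → ℂ) 1 := by
        rw [Finset.sum_eq_single (1 : (P : Subgroup G))]
        · simp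
        · intro u _ hu
          refine apply_eq_zero_of_regInt_self_eq p χ hz ?_
          obtain ⟨k, hk⟩ := IsPGroup.iff_orderOf.1 P.isPGroup' u
          rw [Subgroup.orderOf_coe, hk]
          exact dvd_pow_self p fun hk0 => hu (orderOf_eq_one_iff.1 (by rw [hk, hk0, pow_zero]))
        · simp
      obtain ⟨k, hk⟩ := IsCharacter.exists_classInner_eq_nat
        (CfsgLib.Brauer.isCharacter_res (IsIrrCharacter.isCharacter χ.2) (P : Subgroup G))
        (trivIrr (P : Subgroup G))
      rw [classInner, inv_mul_eq_iff_eq_mul₀ (Nat.cast_ne_zero.2 Nat.card_pos.ne')] at hk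
      simp only [trivIrr_apply, map_one, mul_one, hsum, irr_apply_one_eq] at hk
      have hk' : charDegree (χ : G → ℂ) = p ^ a * k := by
        rw [ha, ← P.card_eq_multiplicity]; exact_mod_cast hk
      rw [hz, hk', ← ha, ← hg', Nat.cast_mul, Nat.cast_pow, mul_assoc] at hs
      have := mul_left_cancel₀ (pow_ne_zero _ hpZ.ne_zero) hs
      exact hg'p (by exact_mod_cast this ▸ hps.mul_left (k : ℤ))
    · have hlt : n χ < p := lt_of_le_of_ne hle hnp
      have h2 : (p : ℤ) ^ (d + 1) ∣ regInt p χ χ * (g' : ℤ) := by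
        rw [hg', hs, pow_succ]
        exact mul_dvd_mul (by exact_mod_cast hdiv) hps
      rw [hn, mul_assoc, pow_succ] at h2
      rcases hpZ.dvd_or_dvd ((mul_dvd_mul_iff_left (pow_ne_zero _ hpZ.ne_zero)).1 h2) with h3 | h3
      · exact absurd (Int.le_of_dvd hpos h3) (not_le.2 hlt)
      · exact hg'p (by exact_mod_cast h3)
  obtain ⟨t, ht⟩ := degree_dvd_regInt_mul p ψ χ
  have htn : ¬ (p : ℤ) ∣ t := by
    intro hpt
    apply hsn
    have hcong := memLocalIdeal_pairReg_div_sub (M := M) p h χ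
    have e : ∀ (η : IrrCharacter G) (u : ℤ),
        regInt p η χ * ((Nat.card G / p ^ (Nat.card G).factorization p : ℕ) : ℤ) =
          (charDegree (η : G → ℂ) : ℤ) * u →
        pairReg p (η : G → ℂ) (χ : G → ℂ) / (η : G → ℂ) 1 = (u : ℂ) := fun η u hu => by
      rw [pairReg_eq, hu, irr_apply_one_eq, Int.cast_mul, Int.cast_natCast,
        mul_div_cancel_left₀ _ (Nat.cast_ne_zero.2 (charDegree_pos η).ne')]
    rw [e χ s hs, e ψ t ht, ← Int.cast_sub, CfsgLib.Blocks.memLocalIdeal_intCast_iff hM] at hcong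
    simpa using dvd_add hcong hpt
  have h1 : (p : ℤ) ^ d ∣ (charDegree (ψ : G → ℂ) : ℤ) * t := by
    rw [← ht, regInt_comm, hn, mul_assoc]
    exact dvd_mul_right _ _
  have h2 := (IsCoprime.pow_left (m := d) (hpZ.coprime_iff_not_dvd.mpr htn)).dvd_of_dvd_mul_right h1
  exact_mod_cast h2

end CfsgLib.ZerosCodegree
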