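import Cfsg.Agent.Lib.Blocks.Sections
import Mathlib.LinearAlgebra.Dimension.Constructions

/-!
Blocks of a given defect are told apart by the regular classes of that defect.
-/

set_option autoImplicit false
set_option linter.unusedSectionVars false
set_option linter.style.haveILetI false

open MonoidAlgebra Cfsg

namespace CfsgLib.ZerosCodegree

open CfsgLib.Blocks

variable {G : Type*} [Group G] [Finite G] {p : ℕ} [Fact p.Prime] {M : Ideal AlgInt} [M.IsPrime]
  {B : Set (IrrCharacter G)}

/-- The support of a block idempotent has classes of defect at most that of the block. -/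
theorem factorization_le_blockDefect (hM : IsPModular p M) (hB : IsPBlock M B) {h : G}
    (hh : ¬ MemLocalIdeal M (blockCoeff B h)) :
    (Nat.card (Subgroup.centralizer ({h} : Set G))).factorization p ≤ blockDefect p B := by
  obtain ⟨χ, hχ⟩ := isPBlock_nonempty hB
  obtain ⟨g, hg⟩ := exists_isDefectClass hM hB
  obtain ⟨D⟩ := (inferInstance : Nonempty (Sylow p (Subgroup.centralizer ({g} : Set G))))
  obtain ⟨S⟩ := (inferInstance : Nonempty (Sylow p (Subgroup.centralizer ({h} : Set G))))
  obtain ⟨a, ha⟩ := exists_conj_le_sylow hM hB hh hχ (hg.2.2 χ hχ) (isPGroup_sylow_map S)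
    (sylow_map_le S) D
  have h1 := Subgroup.card_le_of_le ha
  rw [card_map_conj, card_isDefectGroup hM hB (isDefectGroup_sylow_map hg D), card_sylow_map] at h1
  exact (Nat.pow_le_pow_iff_right (Fact.out : p.Prime).one_lt).1 h1

/-- A class where a character of the block is a unit has defect at least that of the block. -/
theorem blockDefect_le_factorization (hM : IsPModular p M) (hB : IsPBlock M B) {χ : IrrCharacter G}
    (hχ : χ ∈ B) {g : G} (hg : ¬ MemLocalIdeal M (centralChar (χ : G → ℂ) g)) :
    blockDefect p B ≤ (Nat.card (Subgroup.centralizer ({g} : Set G))).factorization p := by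
  obtain ⟨h, hh⟩ := exists_isDefectClass hM hB
  obtain ⟨D⟩ := (inferInstance : Nonempty (Sylow p (Subgroup.centralizer ({h} : Set G))))
  obtain ⟨S⟩ := (inferInstance : Nonempty (Sylow p (Subgroup.centralizer ({g} : Set G))))
  obtain ⟨a, ha⟩ := exists_conj_le_sylow hM hB hh.2.1 hχ hg (isPGroup_sylow_map D)
    (sylow_map_le D) S
  have h1 := Subgroup.card_le_of_le ha
  rw [card_map_conj, card_isDefectGroup hM hB (isDefectGroup_sylow_map hh D), card_sylow_map] at h1
  exact (Nat.pow_le_pow_iff_right (Fact.out : p.Prime).one_lt).1 h1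

/-- The class is regular and of defect `d`. -/
def IsRegularOfDefect (p d : ℕ) (C : ConjClasses G) : Prop :=
  ∃ g : G, ConjClasses.mk g = C ∧ ¬ p ∣ orderOf g ∧
    (Nat.card (Subgroup.centralizer ({g} : Set G))).factorization p = d

theorem isRegularOfDefect_out {d : ℕ} {c : ConjClasses G} (h1 : ¬ p ∣ orderOf c.out)
    (h2 : (Nat.card (Subgroup.centralizer ({c.out} : Set G))).factorization p = d) :
    IsRegularOfDefect p d c := ⟨c.out, Quotient.out_eq c, h1, h2⟩

open scoped Classical in
/-- The value of a block idempotent at a character only involves regular classes of the defect. -/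
theorem omegaRes_idemRes_eq_sum (hM : IsPModular p M) (hB : IsPBlock M B) {d : ℕ}
    (hd : blockDefect p B = d) {B' : Set (IrrCharacter G)} (hB' : IsPBlock M B')
    (hd' : blockDefect p B' = d) {χ : IrrCharacter G} (hχ : χ ∈ B') [Fintype (ConjClasses G)]
    [Fintype {c : ConjClasses G // IsRegularOfDefect p d c}] :
    omegaRes M χ (idemRes M B (memLocalRing_blockCoeff hB)) =
      ∑ c : {c : ConjClasses G // IsRegularOfDefect p d c},
        (idemRes M B (memLocalRing_blockCoeff hB) : MonoidAlgebra (Res M) G).coeff c.1.out *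
          red M (omegaLoc M χ (classSumA (locRing M) c.1.out)) := by
  haveI := Fintype.ofFinite G
  show omegaResAux M χ _ = _
  rw [omegaResAux_eq]
  refine Eq.trans ?_ (Finset.sum_subtype (Finset.univ.filter (IsRegularOfDefect p d)) (by simp)
    (fun c : ConjClasses G =>
      (idemRes M B (memLocalRing_blockCoeff hB) : MonoidAlgebra (Res M) G).coeff c.out *
        red M (omegaLoc M χ (classSumA (locRing M) c.out))))
  refine (Finset.sum_subset (Finset.filter_subset _ _) fun c _ hc => ?_).symm
  by_contra hne
  obtain ⟨h1, h2⟩ := ne_zero_and_ne_zero_of_mul hne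
  rw [Ne, coeff_idemRes_eq_zero_iff] at h1
  rw [Ne, red_eq_zero_iff, coe_omegaLoc_classSumA] at h2
  refine hc (Finset.mem_filter.2 ⟨Finset.mem_univ c, isRegularOfDefect_out
    (fun hdvd => h1 (by rw [blockCoeff_eq_zero_of_dvd_orderOf hM hB hdvd]; exact memLocalIdeal_zero))
    (le_antisymm (hd ▸ factorization_le_blockDefect hM hB h1)
      (hd' ▸ blockDefect_le_factorization hM hB' hχ h2))⟩)

/-- Blocks of defect `d` are separated by the regular classes of defect `d`. -/
theorem sameBlock_of_regular_defect (hM : IsPModular p M) {d : ℕ} {χ ψ : IrrCharacter G}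
    (hχ : blockDefect p (blockOf M (χ : G → ℂ)) = d) (hψ : blockDefect p (blockOf M (ψ : G → ℂ)) = d)
    (h : ∀ x : G, ¬ p ∣ orderOf x →
      (Nat.card (Subgroup.centralizer ({x} : Set G))).factorization p = d →
      MemLocalIdeal M (centralChar (χ : G → ℂ) x - centralChar (ψ : G → ℂ) x)) :
    SameBlock M (χ : G → ℂ) (ψ : G → ℂ) := by
  classical
  haveI := Fintype.ofFinite (ConjClasses G)
  haveI : Fintype {c : ConjClasses G // IsRegularOfDefect p d c} := Fintype.ofFinite _
  have hB := isPBlock_blockOf (M := M) χ
  have h1 := omegaRes_idemRes_of_mem (memLocalRing_blockCoeff hB) (mem_blockOf_self (M := M) χ)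
  rw [omegaRes_idemRes_eq_sum hM hB hχ hB hχ (mem_blockOf_self χ)] at h1
  by_contra hne
  have h2 := omegaRes_idemRes_of_notMem (memLocalRing_blockCoeff hB) (χ := ψ)
    (fun hmem => hne hmem)
  rw [omegaRes_idemRes_eq_sum hM hB hχ (isPBlock_blockOf ψ) hψ (mem_blockOf_self ψ)] at h2
  refine one_ne_zero (α := Res M) (h1.symm.trans (Eq.trans (Finset.sum_congr rfl fun c _ => ?_) h2))
  obtain ⟨g, hg, hreg, hdef⟩ := c.2
  congr 1
  rw [red_eq_red_iff, coe_omegaLoc_classSumA, coe_omegaLoc_classSumA]
  have hconj : IsConj g c.1.out := by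
    rw [← ConjClasses.mk_eq_mk_iff_isConj, hg]
    exact (Quotient.out_eq c.1).symm
  rw [← centralChar_eq_of_isConj (CharTheory.IsIrrCharacter.isClassFunction χ.2) hconj,
    ← centralChar_eq_of_isConj (CharTheory.IsIrrCharacter.isClassFunction ψ.2) hconj]
  exact h g hreg hdef

/-- No more blocks of defect `d` than regular classes of defect `d`. -/
theorem card_blocks_le_classes_of_defect (hM : IsPModular p M) (d : ℕ) :
    Nat.card {B : Set (IrrCharacter G) // IsPBlock M B ∧ blockDefect p B = d} ≤
      Nat.card {c : ConjClasses G // IsRegularOfDefect p d c} := by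
  classical
  haveI := Fintype.ofFinite (ConjClasses G)
  haveI := Fintype.ofFinite (IrrCharacter G)
  let S := {c : ConjClasses G // IsRegularOfDefect p d c}
  let T := {B : Set (IrrCharacter G) // IsPBlock M B ∧ blockDefect p B = d}
  haveI : Fintype S := Fintype.ofFinite S
  haveI : Fintype T := Fintype.ofFinite T
  choose χ hχ using fun B : T => isPBlock_nonempty B.2.1
  let v : T → S → Res M := fun B c => red M (omegaLoc M (χ B) (classSumA (locRing M) c.1.out))
  have key : ∀ A B : T, ∑ c : S,
      (idemRes M A.1 (memLocalRing_blockCoeff A.2.1) : MonoidAlgebra (Res M) G).coeff c.1.out *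
        v B c = if A = B then 1 else 0 := by
    intro A B
    rw [← omegaRes_idemRes_eq_sum hM A.2.1 A.2.2 B.2.1 B.2.2 (hχ B)]
    split_ifs with hAB
    · subst hAB
      exact omegaRes_idemRes_of_mem _ (hχ A)
    · exact omegaRes_idemRes_of_notMem _ fun hmem =>
        hAB (Subtype.ext (isPBlock_eq_of_mem A.2.1 B.2.1 hmem (hχ B)))
  have hli : LinearIndependent (Res M) v := by
    rw [Fintype.linearIndependent_iff]
    intro t ht A
    have h1 : ∑ c : S, (idemRes M A.1 (memLocalRing_blockCoeff A.2.1) :
        MonoidAlgebra (Res M) G).coeff c.1.out * ∑ B : T, t B * v B c = 0 :=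
      Finset.sum_eq_zero fun c _ => by
        have h2 := congrFun ht c
        simp only [Finset.sum_apply, Pi.smul_apply, smul_eq_mul, Pi.zero_apply] at h2
        rw [h2, mul_zero]
    simp only [Finset.mul_sum] at h1
    rw [Finset.sum_comm] at h1
    simp only [mul_left_comm _ (t _), ← Finset.mul_sum, key, mul_ite, mul_one, mul_zero,
      Finset.mem_univ, if_true] at h1
    rwa [Finset.sum_ite_eq, if_pos (Finset.mem_univ A)] at h1
  have := hli.fintype_card_le_finrank
  rwa [Module.finrank_pi, ← Nat.card_eq_fintype_card, ← Nat.card_eq_fintype_card] at this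

end CfsgLib.ZerosCodegree
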