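import Cfsg.Agent.Lib.ZerosCodegree.SelfCentralPrime
import Cfsg.Agent.Lib.ZerosCodegree.FlatCharacters
import Mathlib.LinearAlgebra.Projection

/-!
The determinant of a character of degree `p - 1` on an element inducing a full automiser.
-/

set_option autoImplicit false
set_option linter.unusedSectionVars false
set_option linter.style.haveILetI false

open Cfsg

namespace CfsgLib.ZerosCodegree

open CfsgLib.CharTheory
open scoped ComplexConjugate

universe u
variable {G : Type u} [Group G] [Fintype G] {p : ℕ} {x : G}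

theorem prod_roots_of_unity {e : ℕ} (he : 0 < e) (heven : Even e) :
    ∏ z ∈ Polynomial.nthRootsFinset e (1 : ℂ), z = -1 := by
  classical
  have hζ := Complex.isPrimitiveRoot_exp e he.ne'
  set ζ := Complex.exp (2 * Real.pi * Complex.I / e)
  have himg : Polynomial.nthRootsFinset e (1 : ℂ) = (Finset.range e).image (ζ ^ ·) := by
    refine (Finset.eq_of_subset_of_card_le (fun z hz => ?_) ?_).symm
    · obtain ⟨i, -, rfl⟩ := Finset.mem_image.1 hz
      rw [Polynomial.mem_nthRootsFinset he, ← pow_mul, mul_comm, pow_mul, hζ.pow_eq_one, one_pow]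
    · rw [hζ.card_nthRootsFinset, Finset.card_image_of_injOn, Finset.card_range]
      intro i hi j hj hij
      exact hζ.pow_inj (Finset.mem_range.1 hi) (Finset.mem_range.1 hj) hij
  rw [himg, Finset.prod_image (fun i hi j hj hij =>
    hζ.pow_inj (Finset.mem_range.1 hi) (Finset.mem_range.1 hj) hij), Finset.prod_pow_eq_pow_sum]
  obtain ⟨k, hk⟩ := heven
  have hsum : ∑ i ∈ Finset.range e, i = k * (e - 1) := by
    have := Finset.sum_range_id_mul_two e
    have h2 : e * (e - 1) = k * (e - 1) * 2 := by rw [mul_right_comm, hk]; ring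
    omega
  rw [hsum, pow_mul]
  have hhalf : ζ ^ k = -1 := by
    have h1 : (ζ ^ k) ^ 2 = 1 := by rw [← pow_mul, show k * 2 = e by omega, hζ.pow_eq_one]
    rcases sq_eq_one_iff.1 h1 with h2 | h2
    · exact absurd (Nat.le_of_dvd (by omega) (hζ.dvd_of_pow_eq_one _ h2)) (by omega)
    · exact h2
  rw [hhalf, Odd.neg_one_pow]
  exact ⟨k - 1, by omega⟩

/-- Equal multiplicities when the proper power sums vanish. -/
theorem card_filter_eigen {ι : Type*} [Fintype ι] [DecidableEq ℂ] {e : ℕ} (he : 0 < e) (μ : ι → ℂ)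
    (hμ : ∀ i, μ i ^ e = 1) (hvan : ∀ k, 0 < k → k < e → ∑ i, μ i ^ k = 0) {z : ℂ} (hz : z ^ e = 1) :
    e * (Finset.univ.filter fun i => μ i = z).card = Fintype.card ι := by
  have hz0 : z ≠ 0 := fun h => by rw [h, zero_pow he.ne'] at hz; exact zero_ne_one hz
  have hgeo : ∀ i, ∑ k ∈ Finset.range e, (μ i * z⁻¹) ^ k = if μ i = z then (e : ℂ) else 0 := by
    intro i
    split_ifs with h
    · rw [h, mul_inv_cancel₀ hz0]; simp
    · have hne : μ i * z⁻¹ ≠ 1 := fun h1 => h (by
        rw [← mul_one z, ← h1, mul_comm, inv_mul_cancel_right₀ hz0])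
      rw [geom_sum_eq hne, mul_pow, hμ, inv_pow, hz]
      simp
  have h1 : ∑ i, ∑ k ∈ Finset.range e, (μ i * z⁻¹) ^ k = (Fintype.card ι : ℂ) := by
    rw [Finset.sum_comm, Finset.sum_eq_single 0]
    · simp
    · intro k hk hk0
      simp only [mul_pow, ← Finset.sum_mul]
      rw [hvan k (Nat.pos_of_ne_zero hk0) (Finset.mem_range.1 hk), zero_mul]
    · intro h; exact absurd (Finset.mem_range.2 he) h
  simp only [hgeo] at h1
  rw [← Finset.sum_filter, Finset.sum_const, nsmul_eq_mul] at h1
  rw [mul_comm]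
  exact_mod_cast h1

namespace SelfCentral

open scoped Classical in
/-- No fixed vector for the element of order `p`. -/
theorem sum_zpowers_eq_zero (h : SelfCentral p x) {t e : ℕ} (he2 : 2 ≤ e) (hte : t * e = p - 1)
    (hN : Nat.card (Subgroup.normalizer (Subgroup.zpowers x : Set G)) = p * e) (χ : IrrCharacter G)
    (hdeg : charDegree (χ : G → ℂ) + 1 = p) :
    ∑ a ∈ Finset.univ.filter (fun a : G => a ∈ Subgroup.zpowers x), (χ : G → ℂ) a = 0 := by
  have hp := h.prime
  haveI : Fact p.Prime := ⟨hp⟩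
  obtain ⟨n, ρ, hρ, hρχ⟩ := χ.2
  obtain ⟨ι, hι, b, μ, hcard, hμ, hb, hchar⟩ := exists_eigenbasis ρ x
  rw [h.order] at hμ
  have hn : Fintype.card ι = p - 1 := by
    have h1 := isCharacter_apply_one_eq (IsIrrCharacter.isCharacter χ.2)
    rw [← hρχ, Representation.char_one, ← hcard, Nat.cast_inj, hρχ] at h1
    omega
  -- sums along the cyclic group
  have hpow : ∀ F : G → ℂ, ∑ a ∈ Finset.univ.filter (fun a : G => a ∈ Subgroup.zpowers x), F a =
      ∑ k ∈ Finset.range p, F (x ^ k) := by
    intro F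
    have himg : Finset.univ.filter (fun a : G => a ∈ Subgroup.zpowers x) =
        (Finset.range p).image (x ^ ·) := by
      ext a
      rw [Finset.mem_filter, mem_zpowers_iff_mem_range_orderOf, h.order]
      simp
    rw [himg, Finset.sum_image]
    intro i hi j hj hij
    exact pow_injOn_Iio_orderOf (by rw [Set.mem_Iio, h.order]; exact Finset.mem_range.1 hi)
      (by rw [Set.mem_Iio, h.order]; exact Finset.mem_range.1 hj) hij
  have hgeo : ∀ c : ℂ, c ^ p = 1 → ∑ k ∈ Finset.range p, c ^ k = if c = 1 then (p : ℂ) else 0 := by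
    intro c hc
    split_ifs with hc1
    · simp [hc1]
    · rw [geom_sum_eq hc1, hc, sub_self, zero_div]
  set m0 := (Finset.univ.filter fun i => μ i = 1).card
  have hsum0 : ∑ a ∈ Finset.univ.filter (fun a : G => a ∈ Subgroup.zpowers x), (χ : G → ℂ) a =
      (p : ℂ) * m0 := by
    rw [hpow]
    simp only [← hρχ, hchar]
    rw [Finset.sum_comm]
    simp only [hgeo _ (hμ _)]
    rw [← Finset.sum_filter, Finset.sum_const, nsmul_eq_mul, mul_comm]
  -- the squares
  set P2 := ∑ i : ι, (Finset.univ.filter fun j => μ j = μ i).card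
  have hsum2 : ∑ a ∈ Finset.univ.filter (fun a : G => a ∈ Subgroup.zpowers x),
      (χ : G → ℂ) a * conj ((χ : G → ℂ) a) = (p : ℂ) * P2 := by
    rw [hpow]
    simp only [← hρχ, hchar, map_sum, map_pow]
    simp only [Finset.mul_sum, Finset.sum_mul, ← mul_pow]
    rw [Finset.sum_comm, Nat.cast_sum, Finset.mul_sum]
    refine Finset.sum_congr rfl fun i _ => ?_
    rw [Finset.sum_comm]
    have hc : ∀ j, ((μ j * conj (μ i)) ^ p = 1) ∧ (μ j * conj (μ i) = 1 ↔ μ j = μ i) := fun j => by
      have hnorm := Complex.norm_eq_one_of_pow_eq_one (hμ i) hp.ne_zero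
      rw [← Complex.inv_eq_conj hnorm]
      refine ⟨by rw [mul_pow, inv_pow, hμ, hμ, inv_one, mul_one], ?_⟩
      rw [mul_inv_eq_one₀ (fun h0 => by rw [h0, norm_zero] at hnorm; exact zero_ne_one hnorm)]
    rw [Finset.sum_congr rfl fun j _ => hgeo _ (hc j).1]
    simp only [(hc _).2]
    rw [← Finset.sum_filter, Finset.sum_const, nsmul_eq_mul, mul_comm]
  have hP2 : m0 * m0 + ((p - 1) - m0) ≤ P2 := by
    rw [show P2 = _ from (Finset.sum_filter_add_sum_filter_not Finset.univ (fun i => μ i = 1) _).symm]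
    refine Nat.add_le_add ?_ ?_
    · rw [Finset.sum_congr rfl (g := fun _ => m0) (fun i hi => by rw [(Finset.mem_filter.1 hi).2]),
        Finset.sum_const, smul_eq_mul]
    · refine le_trans (le_of_eq ?_) (Finset.card_nsmul_le_sum _ _ 1 fun i _ =>
        Finset.card_pos.2 ⟨i, Finset.mem_filter.2 ⟨Finset.mem_univ _, rfl⟩⟩)
      rw [smul_eq_mul, mul_one, ← hn, ← Finset.card_univ,
        ← Finset.card_filter_add_card_filter_not (s := Finset.univ) (fun i => μ i = 1)]
      omega
  -- remove the identity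
  have hsplit : ∀ F : G → ℂ, ∑ a ∈ Finset.univ.filter (fun a : G => a ∈ Subgroup.zpowers x), F a =
      F 1 + ∑ a ∈ Finset.univ.filter (fun a : G => a ∈ Subgroup.zpowers x ∧ a ≠ 1), F a := by
    intro F
    rw [← Finset.add_sum_erase _ _ (Finset.mem_filter.2 ⟨Finset.mem_univ (1 : G), one_mem _⟩)]
    congr 2
    ext a
    simp [and_comm]
  have hcl : ∀ F : G → ℂ, IsClassFunction G F →
      (Nat.card G : ℂ) * ∑ a ∈ Finset.univ.filter (fun a : G => a ∈ Subgroup.zpowers x ∧ a ≠ 1), F a =
        ((p * e : ℕ) : ℂ) * ∑ s ∈ Finset.univ.filter (fun s : G => orderOf s = p), F s := by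
    intro F hF
    rw [← hN, ← h.sum_double F, Finset.sum_congr rfl fun g _ =>
      Finset.sum_congr rfl fun a _ => hF a g, Finset.sum_const, Finset.card_univ, nsmul_eq_mul,
      Nat.card_eq_fintype_card]
  have hdeg' : (χ : G → ℂ) 1 = ((p - 1 : ℕ) : ℂ) := by
    rw [irr_apply_one_eq, show charDegree (χ : G → ℂ) = p - 1 by omega]
  -- Parseval
  have hle : p * P2 + 0 < (p - 1) * (p - 1) + p * e := by
    set S := ∑ s ∈ Finset.univ.filter (fun s : G => orderOf s = p), Complex.normSq ((χ : G → ℂ) s)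
    have hall : ∑ g : G, Complex.normSq ((χ : G → ℂ) g) = (Nat.card G : ℝ) := by
      have h1 := sum_sq_irr χ.2
      simp only [Complex.mul_conj, ← Complex.ofReal_sum] at h1
      exact_mod_cast h1
    have hSlt : S + ((p - 1 : ℕ) : ℝ) * (p - 1 : ℕ) ≤ (Nat.card G : ℝ) := by
      rw [← hall]
      have h1 := Finset.sum_le_univ_sum_of_nonneg (f := fun g => Complex.normSq ((χ : G → ℂ) g))
        (s := insert (1 : G) (Finset.univ.filter (fun s : G => orderOf s = p)))
        fun g => Complex.normSq_nonneg _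
      rw [Finset.sum_insert (by simp [hp.ne_one.symm]), hdeg', Complex.normSq_natCast] at h1
      linarith
    have h2 := hsum2
    rw [hsplit, hdeg', map_natCast] at h2
    have h3 := hcl (fun g => (χ : G → ℂ) g * conj ((χ : G → ℂ) g)) (fun a c => by
      show (χ : G → ℂ) _ * conj ((χ : G → ℂ) _) = _
      rw [IsIrrCharacter.isClassFunction χ.2])
    simp only [Complex.mul_conj, ← Complex.ofReal_sum] at h2 h3
    rw [eq_comm, ← sub_eq_iff_eq_add'] at h2
    rw [← h2] at h3
    have h4 : (Nat.card G : ℝ) * ((p : ℝ) * P2 - ((p - 1 : ℕ) : ℝ) * (p - 1 : ℕ)) = ((p * e : ℕ) : ℝ) * S := by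
      exact_mod_cast h3
    have hG : (0 : ℝ) < Nat.card G := by exact_mod_cast Nat.card_pos
    have hpe : (0 : ℝ) < ((p * e : ℕ) : ℝ) := by exact_mod_cast Nat.mul_pos hp.pos (by omega)
    have hpos : (0 : ℝ) < ((p - 1 : ℕ) : ℝ) * (p - 1 : ℕ) := by
      have : 0 < p - 1 := by have := hp.two_le; omega
      positivity
    have h5 : (p : ℝ) * P2 - ((p - 1 : ℕ) : ℝ) * (p - 1 : ℕ) < ((p * e : ℕ) : ℝ) := by
      refine lt_of_mul_lt_mul_left ?_ hG.le
      rw [h4, mul_comm (Nat.card G : ℝ)]
      exact mul_lt_mul_of_pos_left (by linarith) hpe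
    have h6 : ((p * P2 : ℕ) : ℝ) < (((p - 1) * (p - 1) + p * e : ℕ) : ℝ) := by
      push_cast at h5 ⊢
      linarith
    rw [add_zero]
    exact_mod_cast h6
  -- divisibility
  have hdvd : e ∣ m0 := by
    haveI : Finite (ConjClasses G) := Finite.of_surjective _ ConjClasses.mk_surjective
    haveI : Fintype {C : ConjClasses G // ∃ g ∈ C.carrier, orderOf g = p} := Fintype.ofFinite _
    have h1 := hsum0
    rw [hsplit, hdeg'] at h1
    have h2 := hcl (χ : G → ℂ) (IsIrrCharacter.isClassFunction χ.2)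
    have h3 := h.sum_order_eq (IsIrrCharacter.isClassFunction χ.2)
    set z := ∑ C : {C : ConjClasses G // ∃ g ∈ C.carrier, orderOf g = p}, (χ : G → ℂ) C.1.out
    have hz : IsIntegral ℤ z :=
      IsIntegral.sum _ fun C _ => IsCharacter.isIntegral (IsIrrCharacter.isCharacter χ.2) _
    have hG : (Nat.card G : ℂ) ≠ 0 := Nat.cast_ne_zero.2 (Nat.card_pos (α := G)).ne'
    have h4 : ((p * m0 : ℕ) : ℂ) - ((p - 1 : ℕ) : ℂ) = (e : ℂ) * z := by
      refine mul_left_cancel₀ hG ?_
      push_cast at h2 ⊢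
      linear_combination (Nat.card G : ℂ) * (-h1) + h2 + (e : ℂ) * h3
    have h5 : (e : ℤ) ∣ ((p * m0 : ℕ) : ℤ) - ((p - 1 : ℕ) : ℤ) := by
      obtain ⟨y, hy⟩ := exists_int_of_isIntegral_ratCast
        (q := ((((p * m0 : ℕ) : ℤ) - ((p - 1 : ℕ) : ℤ) : ℤ) : ℚ) / e) (by
          have he0 : (e : ℂ) ≠ 0 := Nat.cast_ne_zero.2 (by omega)
          have h6 : (((((((p * m0 : ℕ) : ℤ) - ((p - 1 : ℕ) : ℤ) : ℤ) : ℚ) / e : ℚ)) : ℂ) = z := by
            rw [← mul_div_cancel_left₀ z he0, ← h4]
            push_cast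
            ring
          rwa [h6])
      refine ⟨y, ?_⟩
      have he0 : (e : ℚ) ≠ 0 := Nat.cast_ne_zero.2 (by omega)
      have : ((((p * m0 : ℕ) : ℤ) - ((p - 1 : ℕ) : ℤ) : ℤ) : ℚ) = (((e : ℤ) * y : ℤ) : ℚ) := by
        rw [Int.cast_mul, hy, Int.cast_natCast, mul_div_cancel₀ _ he0]
      exact_mod_cast this
    have h7 : e ∣ p * m0 := by
      rw [← Int.natCast_dvd_natCast]
      have : (e : ℤ) ∣ ((p - 1 : ℕ) : ℤ) := Int.natCast_dvd_natCast.2 ⟨t, by rw [← hte, mul_comm]⟩
      simpa using dvd_add h5 this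
    refine Nat.Coprime.dvd_of_dvd_mul_left ?_ h7
    refine ((hp.coprime_iff_not_dvd).2 fun hd => ?_).symm
    have h8 : e ∣ p - 1 := ⟨t, by rw [← hte, mul_comm]⟩
    have := Nat.le_of_dvd (by have := hp.two_le; omega) (hd.trans h8)
    omega
  have hm0 : m0 = 0 := by
    by_contra h0
    have hm : e ≤ m0 := Nat.le_of_dvd (Nat.pos_of_ne_zero h0) hdvd
    have hmle : m0 ≤ p - 1 := hn ▸ (Finset.card_le_univ _)
    obtain ⟨d, hd⟩ := Nat.le.dest hmle
    rw [← hd, Nat.add_sub_cancel_left] at hP2
    rw [← hd, add_zero] at hle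
    have hp' : p = m0 + d + 1 := by omega
    subst hp'
    nlinarith [Nat.mul_le_mul_left (m0 + d + 1) hP2, Nat.mul_le_mul_left m0 (le_trans he2 hm),
      Nat.mul_le_mul_left (m0 + d + 1) hm]
  rw [hsum0, hm0, Nat.cast_zero, mul_zero]

end SelfCentral

namespace SelfCentral

open scoped Classical in
/-- The parity theorem for odd `p`. -/
theorem even_index_commutator (h : SelfCentral p x) (hp2 : p ≠ 2) {t : ℕ}
    (ht : Nat.card {C : ConjClasses G // ∃ g ∈ C.carrier, orderOf g = p} = t) (hodd : ¬ Even t)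
    (χ : IrrCharacter G) (hdeg : charDegree (χ : G → ℂ) + 1 = p) : Even (commutator G).index := by
  have hp := h.prime
  haveI : Fact p.Prime := ⟨hp⟩
  haveI : Finite (ConjClasses G) := Finite.of_surjective _ ConjClasses.mk_surjective
  haveI : Fintype {C : ConjClasses G // ∃ g ∈ C.carrier, orderOf g = p} := Fintype.ofFinite _
  set P := Subgroup.zpowers x
  set N := Subgroup.normalizer (P : Set G)
  obtain ⟨e, he⟩ : p ∣ Nat.card N := h.card_zpowers ▸ Subgroup.card_dvd_of_le Subgroup.le_normalizer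
  have hG : (Nat.card G : ℂ) ≠ 0 := Nat.cast_ne_zero.2 (Nat.card_pos (α := G)).ne'
  have hte : t * e = p - 1 := by
    have h1 := h.sum_double (fun _ => (1 : ℂ))
    have h2 := h.sum_order_eq (f := fun _ => (1 : ℂ)) (fun _ _ => rfl)
    rw [Finset.sum_const, Finset.sum_const, Finset.sum_const, Finset.card_univ,
      ← Nat.card_eq_fintype_card, he] at h1
    rw [Finset.sum_const, Finset.sum_const, Finset.card_univ, ← Nat.card_eq_fintype_card, ht] at h2
    simp only [nsmul_eq_mul, mul_one] at h1 h2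
    have hA : (Finset.univ.filter fun a : G => a ∈ P ∧ a ≠ 1).card = p - 1 := by
      rw [show (Finset.univ.filter fun a : G => a ∈ P ∧ a ≠ 1) =
        (Finset.univ.filter fun a : G => a ∈ P).erase 1 by ext a; simp [and_comm],
        Finset.card_erase_of_mem (by simp [one_mem]), ← Fintype.card_subtype]
      rw [← Nat.card_eq_fintype_card, show Nat.card {a : G // a ∈ P} = p from h.card_zpowers]
    rw [hA] at h1
    have h3 : (Nat.card G : ℂ) * ((t * e : ℕ) : ℂ) = (Nat.card G : ℂ) * ((p - 1 : ℕ) : ℂ) := by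
      push_cast at h1 h2 ⊢
      linear_combination (-(e : ℂ)) * h2 - h1
    exact_mod_cast mul_left_cancel₀ hG h3
  have hp3 : 3 ≤ p := by have := hp.two_le; omega
  have heven : Even e := by
    have h1 : Even (t * e) := hte ▸ (hp.odd_of_ne_two hp2).tsub_odd odd_one
    exact (Nat.even_mul.1 h1).resolve_left hodd
  have he0 : 0 < e := Nat.pos_of_ne_zero fun h0 => by rw [h0, mul_zero] at hte; omega
  have he2 : 2 ≤ e := by obtain ⟨k, hk⟩ := heven; omega
  have hsum := h.sum_zpowers_eq_zero he2 hte he χ hdeg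
  -- the element inducing the automorphisms
  let φ : N →* MulAut P := P.normalizerMonoidHom
  have hker : ∀ n : N, φ n = 1 → (n : G) ∈ P := fun n hn => by
    show (n : G) ∈ Subgroup.zpowers x
    rw [← h.cent]
    refine Subgroup.mem_centralizer_singleton_iff.2 ?_
    have h1 := congrArg (fun f : MulAut P => ((f ⟨x, Subgroup.mem_zpowers x⟩ : P) : G)) hn
    exact mul_inv_eq_iff_eq_mul.1 h1
  have hP : ∀ n : N, (n : G) ∈ P → φ n = 1 := fun n hn => by
    ext a
    show (n : G) * (a : G) * (n : G)⁻¹ = a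
    obtain ⟨i, hi⟩ := Subgroup.mem_zpowers_iff.1 hn
    obtain ⟨j, hj⟩ := Subgroup.mem_zpowers_iff.1 a.2
    rw [← hi, ← hj, ← zpow_add, add_comm, zpow_add, mul_inv_cancel_right]
  haveI hcyc : IsCyclic (MulAut P) := by
    haveI : IsCyclic P := inferInstance
    haveI : Fact (Nat.card P).Prime := ⟨by rw [h.card_zpowers]; exact hp⟩
    exact isCyclic_of_surjective (IsCyclic.mulAutMulEquiv P).symm
      (IsCyclic.mulAutMulEquiv P).symm.surjective
  obtain ⟨w, hw⟩ := IsCyclic.exists_generator (α := φ.range)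
  obtain ⟨u₀, hu₀⟩ := w.2
  have hrange : Nat.card φ.range = e := by
    have hk : φ.ker = P.subgroupOf N := Subgroup.ext fun n => ⟨hker n, hP n⟩
    have h1 := φ.ker.card_mul_index
    rw [Subgroup.index_ker, hk, Nat.card_congr (Subgroup.subgroupOfEquivOfLe
      (Subgroup.le_normalizer (H := P))).toEquiv, h.card_zpowers, he] at h1
    exact Nat.eq_of_mul_eq_mul_left hp.pos h1
  have hordw : orderOf (φ u₀) = e := by
    rw [hu₀, Subgroup.orderOf_coe, orderOf_eq_card_of_forall_mem_zpowers hw, hrange]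
  have hcop : e.Coprime p := ((hp.coprime_iff_not_dvd).2 fun hd => by
    have := Nat.le_of_dvd (by omega) (hd.trans (Dvd.intro_left t hte))
    omega).symm
  set u : N := u₀ ^ p
  have hue : u ^ e = 1 := by rw [← pow_mul, ← he]; exact pow_card_eq_one'
  have huP : ∀ k, 0 < k → k < e → (u : G) ^ k ∉ P := fun k hk0 hke hmem => by
    have h1 := hP (u ^ k) (by rw [Subgroup.coe_pow]; exact hmem)
    rw [← pow_mul, map_pow] at h1
    have h2 := hcop.dvd_of_dvd_mul_left (hordw ▸ orderOf_dvd_of_pow_eq_one h1)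
    exact absurd (Nat.le_of_dvd hk0 h2) (by omega)
  -- vanishing on the powers of `u`
  have hvan : ∀ k, 0 < k → k < e → (χ : G → ℂ) ((u : G) ^ k) = 0 := by
    intro k hk0 hke
    obtain ⟨n, ρ, hρ, hρχ⟩ := χ.2
    set y := (u : G) ^ k
    have hy : y ∈ N := N.pow_mem u.2 k
    let f : P → P := fun a => ⟨y⁻¹ * (a : G) * y * (a : G)⁻¹, P.mul_mem
      (by
        have := (Subgroup.mem_normalizer_iff.1 (N.inv_mem hy) (a : G)).1 a.2
        rwa [inv_inv] at this) (P.inv_mem a.2)⟩
    have hinj : Function.Injective f := by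
      intro a b hab
      have h1 : y⁻¹ * (a : G) * y * (a : G)⁻¹ = y⁻¹ * (b : G) * y * (b : G)⁻¹ := congrArg Subtype.val hab
      by_contra hne
      set d := (b : G)⁻¹ * (a : G)
      have hd : d ∈ P := P.mul_mem (P.inv_mem b.2) a.2
      have hd1 : d ≠ 1 := fun e1 => hne (Subtype.ext (inv_mul_eq_one.1 e1).symm)
      refine huP k hk0 hke (h.mem_of_commute hd hd1 ?_)
      show y * d = d * y
      have hcomm : Commute (a : G) (b : G) := by
        obtain ⟨i, hi⟩ := Subgroup.mem_zpowers_iff.1 a.2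
        obtain ⟨j, hj⟩ := Subgroup.mem_zpowers_iff.1 b.2
        rw [← hi, ← hj]
        exact ((Commute.refl x).zpow_right j).zpow_left i
      have h2 : y⁻¹ * d * y = d := by
        calc y⁻¹ * d * y = (y⁻¹ * (b : G) * y)⁻¹ * (y⁻¹ * (a : G) * y * (a : G)⁻¹) * (a : G) := by
              simp only [d]; group
          _ = (b : G)⁻¹ * (a : G) := by rw [h1]; group
          _ = d := rfl
      calc y * d = y * (y⁻¹ * d * y) := by rw [h2]
        _ = d * y := by group
    have hbij : Function.Surjective f := Finite.surjective_of_injective hinj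
    have hconst : ∀ a : G, a ∈ P → (χ : G → ℂ) (y * a) = (χ : G → ℂ) y := by
      intro a ha
      obtain ⟨b, hb⟩ := hbij ⟨a, ha⟩
      have hb' : y⁻¹ * (b : G) * y * (b : G)⁻¹ = a := congrArg Subtype.val hb
      rw [← hb', show y * (y⁻¹ * (b : G) * y * (b : G)⁻¹) = (b : G) * y * (b : G)⁻¹ by group]
      exact IsIrrCharacter.isClassFunction χ.2 y _
    obtain ⟨ι, hι, b, μ, hcard, hμ, hb, hchar⟩ := exists_eigenbasis ρ x
    -- the sum over `P` acts as zero
    have hzero : ∑ a ∈ Finset.univ.filter (fun a : G => a ∈ P), ρ a = 0 := by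
      set T := ∑ a ∈ Finset.univ.filter (fun a : G => a ∈ P), ρ a with hT
      have hTT : T * T = (p : ℂ) • T := by
        have hmul : ∀ c ∈ P, ρ c * T = T := fun c hc => by
          rw [hT, Finset.mul_sum]
          refine Finset.sum_bij' (fun a _ => c * a) (fun a _ => c⁻¹ * a) ?_ ?_ ?_ ?_ ?_
          · intro a ha; simpa using P.mul_mem hc (by simpa using ha)
          · intro a ha; simpa using P.mul_mem (P.inv_mem hc) (by simpa using ha)
          · intro a _; simp
          · intro a _; simp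
          · intro a _; rw [map_mul]
        nth_rewrite 1 [hT]
        rw [Finset.sum_mul, Finset.sum_congr rfl fun a ha => hmul a (Finset.mem_filter.1 ha).2,
          Finset.sum_const, show (Finset.univ.filter fun a : G => a ∈ P).card = p by
            rw [← Fintype.card_subtype, ← Nat.card_eq_fintype_card]; exact h.card_zpowers,
          ← Nat.cast_smul_eq_nsmul ℂ]
      have hE : IsIdempotentElem ((p : ℂ)⁻¹ • T) := by
        show ((p : ℂ)⁻¹ • T) * ((p : ℂ)⁻¹ • T) = _
        rw [smul_mul_smul_comm, hTT, smul_smul, mul_assoc, inv_mul_cancel₀ (Nat.cast_ne_zero.2 hp.ne_zero),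
          mul_one]
      obtain ⟨V, hV⟩ := LinearMap.IsIdempotentElem.isProj_range _ hE |> fun h' => (⟨_, h'⟩ :
        ∃ V, LinearMap.IsProj V ((p : ℂ)⁻¹ • T))
      have htr := hV.trace
      rw [map_smul, hT, map_sum] at htr
      have h0 : ∑ a ∈ Finset.univ.filter (fun a : G => a ∈ P), LinearMap.trace ℂ _ (ρ a) = 0 := by
        show ∑ a ∈ Finset.univ.filter (fun a : G => a ∈ P), ρ.character a = 0
        rw [hρχ]; exact hsum
      rw [h0, smul_zero, eq_comm, Nat.cast_eq_zero] at htr
      have hbot := Submodule.finrank_eq_zero.1 htr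
      have h1 : ((p : ℂ)⁻¹ • T) = 0 := LinearMap.ext fun v =>
        (Submodule.mem_bot ℂ).1 (hbot ▸ hV.map_mem v)
      exact (smul_eq_zero.1 h1).resolve_left (inv_ne_zero (Nat.cast_ne_zero.2 hp.ne_zero))
    have h1 : ∑ a ∈ Finset.univ.filter (fun a : G => a ∈ P), (χ : G → ℂ) (y * a) = 0 := by
      rw [← hρχ]
      show ∑ a ∈ Finset.univ.filter (fun a : G => a ∈ P), LinearMap.trace ℂ _ (ρ (y * a)) = 0
      simp only [map_mul]
      rw [← map_sum, ← Finset.mul_sum, hzero, mul_zero, map_zero]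
    rw [Finset.sum_congr rfl fun a ha => hconst a (Finset.mem_filter.1 ha).2, Finset.sum_const,
      smul_eq_zero] at h1
    exact h1.resolve_left (Finset.card_ne_zero_of_mem (Finset.mem_filter.2
      ⟨Finset.mem_univ (1 : G), one_mem _⟩))
  obtain ⟨n, ρ, hρ, hρχ⟩ := χ.2
  have hu1 : (u : G) ^ e = 1 := by rw [← Subgroup.coe_pow, hue]; rfl
  obtain ⟨ι, hι, b, μ, hcard, hμ, hb, hchar⟩ := exists_eigenbasis ρ (u : G)
  have hμe : ∀ i, μ i ^ e = 1 := fun i => by
    obtain ⟨c, hc⟩ := orderOf_dvd_of_pow_eq_one hu1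
    rw [hc, pow_mul, hμ, one_pow]
  have hn : Fintype.card ι = p - 1 := by
    have h1 := isCharacter_apply_one_eq (IsIrrCharacter.isCharacter χ.2)
    rw [← hρχ, Representation.char_one, ← hcard, Nat.cast_inj, hρχ] at h1
    omega
  have hmult : ∀ z ∈ Polynomial.nthRootsFinset e (1 : ℂ),
      (Finset.univ.filter fun i => μ i = z).card = t := fun z hz => by
    refine Nat.eq_of_mul_eq_mul_left he0 ?_
    rw [card_filter_eigen he0 μ hμe (fun k h0 h1 => by rw [← hchar k, hρχ]; exact hvan k h0 h1)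
      ((Polynomial.mem_nthRootsFinset he0 (1 : ℂ)).1 hz), hn, ← hte, mul_comm]
  have hdet : LinearMap.det (ρ (u : G)) = -1 := by
    rw [← LinearMap.det_toMatrix b, show LinearMap.toMatrix b b (ρ (u : G)) = Matrix.diagonal μ by
      ext i j
      have hbj := hb 1 j
      rw [pow_one, pow_one] at hbj
      rw [LinearMap.toMatrix_apply, hbj, map_smul, Module.Basis.repr_self]
      by_cases hij : i = j <;> simp [hij, Finsupp.single_apply, eq_comm], Matrix.det_diagonal,
      ← Finset.prod_fiberwise_of_maps_to (g := μ) (t := Polynomial.nthRootsFinset e (1 : ℂ))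
        (fun i _ => (Polynomial.mem_nthRootsFinset he0 (1 : ℂ)).2 (hμe i)),
      Finset.prod_congr rfl fun z hz => (Finset.prod_congr rfl fun i hi =>
        (Finset.mem_filter.1 hi).2).trans ((Finset.prod_const z).trans (by rw [hmult z hz])),
      Finset.prod_pow, prod_roots_of_unity he0 heven, (Nat.not_even_iff_odd.1 hodd).neg_one_pow]
  set d := CfsgLib.Clifford.detHom ρ
  have hd : d (u : G) = -1 := Units.ext (by rw [CfsgLib.Clifford.detHom_apply, hdet]; simp)
  have hlift := Abelianization.lift_apply_of d (u : G)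
  set a : Abelianization G := Abelianization.of (u : G)
  haveI : Finite (Abelianization G) := inferInstanceAs (Finite (G ⧸ commutator G))
  have hord : orderOf (d (u : G)) = 2 := by
    rw [hd]
    refine orderOf_eq_prime (by simp) fun h1 => ?_
    have := congrArg Units.val h1
    norm_num at this
  have h2 : 2 ∣ Nat.card (Abelianization G) :=
    hord ▸ (hlift ▸ orderOf_map_dvd (Abelianization.lift d) a).trans (orderOf_dvd_natCard a)
  rw [Subgroup.index_eq_card, even_iff_two_dvd]
  exact h2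

/-- The case `p = 2`. -/
theorem even_index_commutator_two (h : SelfCentral 2 x) : Even (commutator G).index := by
  haveI : Fact (Nat.Prime 2) := ⟨Nat.prime_two⟩
  let P : Sylow 2 G := Sylow.ofCard (Subgroup.zpowers x) (by
    rw [h.card_zpowers, h.factorization_card, pow_one])
  have hP : Subgroup.normalizer ((P : Subgroup G) : Set G) ≤ Subgroup.centralizer ((P : Subgroup G) : Set G) := by
    intro n hn
    refine Subgroup.mem_centralizer_iff.2 fun a ha => ?_
    rcases eq_or_ne a 1 with rfl | ha1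
    · simp
    have hna := (Subgroup.mem_normalizer_iff.1 hn a).1 ha
    have hval : ∀ b ∈ Subgroup.zpowers x, b ≠ 1 → b = x := fun b hb hb1 => by
      obtain ⟨i, hi⟩ := Subgroup.mem_zpowers_iff.1 hb
      rw [← hi, ← zpow_mod_orderOf, h.order] at hb1 ⊢
      rcases Int.emod_two_eq i with h0 | h0 <;> rw [Nat.cast_two, h0] at hb1 ⊢
      · exact absurd (zpow_zero x) hb1
      · exact zpow_one x
    have h1 := hval a ha ha1
    have h2 := hval _ hna (fun e => ha1 (by simpa using e))
    show a * n = n * a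
    rw [← mul_inv_eq_iff_eq_mul.1 (h2.trans h1.symm)]
  have hidx : (MonoidHom.transferSylow P hP).ker.index = 2 := by
    rw [(MonoidHom.ker_transferSylow_isComplement' P hP).symm.index_eq_card]
    exact h.card_zpowers
  have hle : commutator G ≤ (MonoidHom.transferSylow P hP).ker := by
    rw [commutator_def, Subgroup.commutator_le]
    intro a _ b _
    rw [MonoidHom.mem_ker, commutatorElement_def, map_mul, map_mul, map_mul, map_inv, map_inv]
    have hcomm : ∀ c d : (P : Subgroup G), c * d = d * c := fun c d => Subtype.ext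
      (Subgroup.mem_centralizer_iff.1 (hP (Subgroup.le_normalizer d.2)) c c.2)
    rw [hcomm ((MonoidHom.transferSylow P hP) a), mul_inv_cancel_right, mul_inv_cancel]
  exact even_iff_two_dvd.2 (hidx ▸ Subgroup.index_dvd_of_le hle)

end SelfCentral

end CfsgLib.ZerosCodegree
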