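import Cfsg.Agent.Lib.ZerosCodegree.CharBasics
import Cfsg.Agent.Lib.CharTheory.Values
import Cfsg.Agent.Lib.BlockLocal.ClassFunctional
import Cfsg.Agent.Lib.Clifford.DetChar
import Mathlib.GroupTheory.SpecificGroups.Cyclic
import Mathlib.GroupTheory.Transfer

/-!
Characters of degree `p - 1` in the presence of a self-centralising element of order `p`.
-/

set_option autoImplicit false
set_option linter.unusedSectionVars false
set_option linter.style.haveILetI false

open Cfsg

namespace CfsgLib.ZerosCodegree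

open CfsgLib.CharTheory
open scoped ComplexConjugate

universe u
variable {G : Type u} [Group G] [Fintype G] {p : ℕ} {x : G}

/-- The data of a self-centralising element of prime order. -/
structure SelfCentral (p : ℕ) (x : G) : Prop where
  prime : p.Prime
  order : orderOf x = p
  cent : Subgroup.centralizer ({x} : Set G) = Subgroup.zpowers x

namespace SelfCentral

theorem card_zpowers (h : SelfCentral p x) : Nat.card (Subgroup.zpowers x) = p := by
  rw [Nat.card_zpowers, h.order]

theorem zpowers_eq_of_mem (h : SelfCentral p x) {a : G} (ha : a ∈ Subgroup.zpowers x) (ha1 : a ≠ 1) :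
    Subgroup.zpowers a = Subgroup.zpowers x := by
  refine Subgroup.eq_of_le_of_card_ge (Subgroup.zpowers_le.2 ha) ?_
  rw [h.card_zpowers, Nat.card_zpowers]
  rcases (Nat.dvd_prime h.prime).1 (h.card_zpowers ▸ Subgroup.orderOf_dvd_natCard _ ha) with h1 | h1
  · exact absurd (orderOf_eq_one_iff.1 h1) ha1
  · exact h1.ge

theorem mem_of_commute (h : SelfCentral p x) {a c : G} (ha : a ∈ Subgroup.zpowers x) (ha1 : a ≠ 1)
    (hc : Commute c a) : c ∈ Subgroup.zpowers x := by
  rw [← h.cent]
  refine Subgroup.mem_centralizer_singleton_iff.2 ?_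
  obtain ⟨i, hi⟩ := Subgroup.mem_zpowers_iff.1
    (show x ∈ Subgroup.zpowers a by rw [h.zpowers_eq_of_mem ha ha1]; exact Subgroup.mem_zpowers x)
  rw [← hi]
  exact (hc.zpow_right i).eq

theorem factorization_card (h : SelfCentral p x) : (Nat.card G).factorization p = 1 := by
  haveI : Fact p.Prime := ⟨h.prime⟩
  obtain ⟨S, hS⟩ := (IsPGroup.of_card (n := 1) (by rw [h.card_zpowers, pow_one]) :
    IsPGroup p (Subgroup.zpowers x)).exists_le_sylow
  obtain ⟨z, hz, hz1⟩ : ∃ z : S, z ∈ Subgroup.center S ∧ z ≠ 1 := by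
    haveI : Nontrivial S := ⟨⟨x, hS (Subgroup.mem_zpowers x)⟩, 1, fun e => h.prime.ne_one (by
      rw [← h.order, show x = 1 from congrArg Subtype.val e, orderOf_one])⟩
    haveI := S.isPGroup'.center_nontrivial
    obtain ⟨z, hz⟩ := exists_ne (1 : Subgroup.center S)
    exact ⟨z, z.2, fun e => hz (Subtype.ext e)⟩
  have hzx : (z : G) ∈ Subgroup.zpowers x := h.mem_of_commute (Subgroup.mem_zpowers x)
    (fun e => h.prime.ne_one (by rw [← h.order, e, orderOf_one]))
    (congrArg Subtype.val (Subgroup.mem_center_iff.1 hz ⟨x, hS (Subgroup.mem_zpowers x)⟩)).symm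
  have hSle : (S : Subgroup G) ≤ Subgroup.zpowers x := fun s hs =>
    h.mem_of_commute hzx (fun e => hz1 (Subtype.ext e))
      (congrArg Subtype.val (Subgroup.mem_center_iff.1 hz ⟨s, hs⟩))
  have := S.card_eq_multiplicity
  rw [le_antisymm hSle hS, h.card_zpowers] at this
  exact ((Nat.pow_right_injective h.prime.two_le) (by simpa using this.symm))

theorem exists_conj (h : SelfCentral p x) {g : G} (hg : orderOf g = p) :
    ∃ c : G, c⁻¹ * g * c ∈ Subgroup.zpowers x := by
  haveI : Fact p.Prime := ⟨h.prime⟩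
  let P : Sylow p G := Sylow.ofCard (Subgroup.zpowers x) (by
    rw [h.card_zpowers, h.factorization_card, pow_one])
  obtain ⟨S, hS⟩ := (IsPGroup.of_card (n := 1) (by rw [Nat.card_zpowers, hg, pow_one]) :
    IsPGroup p (Subgroup.zpowers g)).exists_le_sylow
  obtain ⟨c, hc⟩ := MulAction.exists_smul_eq G S P
  refine ⟨c⁻¹, ?_⟩
  have h1 : MulAut.conj c g ∈ (P : Subgroup G) := by
    rw [← hc, Sylow.coe_subgroup_smul]
    exact Subgroup.smul_mem_pointwise_smul _ _ _ (hS (Subgroup.mem_zpowers g))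
  rw [inv_inv]
  exact h1

theorem zpowers_map_conj (h : SelfCentral p x) {a g : G} (ha : a ∈ Subgroup.zpowers x) (ha1 : a ≠ 1)
    (hga : g * a * g⁻¹ ∈ Subgroup.zpowers x) : g ∈ Subgroup.normalizer (Subgroup.zpowers x : Set G) := by
  refine Subgroup.mem_normalizer_iff.2 fun y => ?_
  have key : (Subgroup.zpowers x).map (MulAut.conj g).toMonoidHom = Subgroup.zpowers x := by
    conv_lhs => rw [← h.zpowers_eq_of_mem ha ha1, MonoidHom.map_zpowers]
    refine h.zpowers_eq_of_mem ?_ ?_
    · simpa using hga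
    · simpa using ha1
  constructor
  · intro hy
    rw [← key]
    exact ⟨y, hy, by simp⟩
  · intro hy
    rw [← key] at hy
    obtain ⟨z, hz, hzy⟩ := hy
    simp only [MulEquiv.coe_toMonoidHom, MulAut.conj_apply] at hzy
    rwa [← mul_left_cancel (mul_right_cancel hzy)]

open scoped Classical in
theorem sum_double (h : SelfCentral p x) (f : G → ℂ) :
    ∑ g : G, ∑ a ∈ Finset.univ.filter (fun a : G => a ∈ Subgroup.zpowers x ∧ a ≠ 1), f (g * a * g⁻¹) =
      (Nat.card (Subgroup.normalizer (Subgroup.zpowers x : Set G)) : ℂ) *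
        ∑ s ∈ Finset.univ.filter (fun s : G => orderOf s = p), f s := by
  set A := Finset.univ.filter (fun a : G => a ∈ Subgroup.zpowers x ∧ a ≠ 1)
  have hA : ∀ a ∈ A, orderOf a = p := fun a ha => by
    obtain ⟨-, h1, h2⟩ := Finset.mem_filter.1 ha
    rw [← Nat.card_zpowers, h.zpowers_eq_of_mem h1 h2, h.card_zpowers]
  rw [← Finset.sum_product', Finset.mul_sum,
    ← Finset.sum_fiberwise_of_maps_to (g := fun q : G × G => q.1 * q.2 * q.1⁻¹)
      (t := Finset.univ.filter fun s : G => orderOf s = p) fun q hq => ?_]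
  swap
  · refine Finset.mem_filter.2 ⟨Finset.mem_univ _, ?_⟩
    rw [show orderOf (q.1 * q.2 * q.1⁻¹) = orderOf q.2 from (MulAut.conj q.1).orderOf_eq q.2]
    exact hA _ (Finset.mem_product.1 hq).2
  refine Finset.sum_congr rfl fun s hs => ?_
  rw [Finset.sum_congr rfl fun q hq => congrArg f (Finset.mem_filter.1 hq).2, Finset.sum_const,
    nsmul_eq_mul]
  congr 2
  obtain ⟨c, hc⟩ := h.exists_conj (Finset.mem_filter.1 hs).2
  set a₀ := c⁻¹ * s * c with ha₀
  have ha₀1 : a₀ ≠ 1 := fun e => h.prime.ne_one (by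
    rw [← (Finset.mem_filter.1 hs).2, show s = c * a₀ * c⁻¹ by rw [ha₀]; group, e, mul_one,
      mul_inv_cancel, orderOf_one])
  rw [Nat.card_eq_fintype_card, ← Finset.card_univ]
  refine Finset.card_bij' (fun q hq => (⟨q.1⁻¹ * c, ?_⟩ :
      Subgroup.normalizer (Subgroup.zpowers x : Set G)))
    (fun n _ => (c * (n : G)⁻¹, (n : G) * a₀ * (n : G)⁻¹)) (fun _ _ => Finset.mem_univ _)
    (fun n _ => ?_) (fun q hq => ?_) (fun n _ => ?_)
  · obtain ⟨hq1, hq2⟩ := Finset.mem_filter.1 hq
    refine h.zpowers_map_conj hc ha₀1 ?_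
    rw [show q.1⁻¹ * c * a₀ * (q.1⁻¹ * c)⁻¹ = q.2 by rw [ha₀, ← hq2]; group]
    exact (Finset.mem_filter.1 (Finset.mem_product.1 hq1).2).2.1
  · refine Finset.mem_filter.2 ⟨Finset.mem_product.2 ⟨Finset.mem_univ _,
      Finset.mem_filter.2 ⟨Finset.mem_univ _, (Subgroup.mem_normalizer_iff.1 n.2 _).1 hc, ?_⟩⟩, ?_⟩
    · intro e
      exact ha₀1 (by simpa using e)
    · show c * (n : G)⁻¹ * ((n : G) * a₀ * (n : G)⁻¹) * (c * (n : G)⁻¹)⁻¹ = s
      rw [ha₀]; group
  · obtain ⟨-, hq2⟩ := Finset.mem_filter.1 hq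
    refine Prod.ext ?_ ?_
    · simp
    · show q.1⁻¹ * c * a₀ * (q.1⁻¹ * c)⁻¹ = q.2
      rw [ha₀, ← hq2]; group
  · exact Subtype.ext (by simp)

theorem index_centralizer (h : SelfCentral p x) {g : G} (hg : orderOf g = p) :
    (Subgroup.centralizer ({g} : Set G)).index * p = Nat.card G := by
  obtain ⟨c, hc⟩ := h.exists_conj hg
  have hc1 : c⁻¹ * g * c ≠ 1 := fun e => h.prime.ne_one (by
    rw [← hg, show g = c * (c⁻¹ * g * c) * c⁻¹ by group, e, mul_one, mul_inv_cancel, orderOf_one])
  have hcard : Nat.card (Subgroup.centralizer ({g} : Set G)) = p := by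
    have e : Subgroup.centralizer ({g} : Set G) =
        (Subgroup.zpowers x).map (MulAut.conj c).toMonoidHom := by
      ext z
      constructor
      · intro hz
        refine ⟨c⁻¹ * z * c, h.mem_of_commute hc hc1 ?_, by simp [mul_assoc]⟩
        show c⁻¹ * z * c * (c⁻¹ * g * c) = c⁻¹ * g * c * (c⁻¹ * z * c)
        have := Subgroup.mem_centralizer_singleton_iff.1 hz
        calc c⁻¹ * z * c * (c⁻¹ * g * c) = c⁻¹ * (z * g) * c := by group
          _ = c⁻¹ * (g * z) * c := by rw [this]
          _ = c⁻¹ * g * c * (c⁻¹ * z * c) := by group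
      · rintro ⟨y, hy, rfl⟩
        obtain ⟨i, hi⟩ := Subgroup.mem_zpowers_iff.1
          (show y ∈ Subgroup.zpowers (c⁻¹ * g * c) by rw [h.zpowers_eq_of_mem hc hc1]; exact hy)
        refine Subgroup.mem_centralizer_singleton_iff.2 ?_
        simp only [MulEquiv.coe_toMonoidHom, MulAut.conj_apply]
        rw [← hi, show c * (c⁻¹ * g * c) ^ i * c⁻¹ = g ^ i by
          rw [← conj_zpow, show c * (c⁻¹ * g * c) * c⁻¹ = g by group]]
        exact ((Commute.refl g).zpow_left i).eq
    rw [e, ← Nat.card_congr ((Subgroup.zpowers x).equivMapOfInjective _ (MulAut.conj c).injective).toEquiv,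
      h.card_zpowers]
  rw [← Subgroup.index_mul_card (Subgroup.centralizer ({g} : Set G)), hcard]

open scoped Classical in
theorem sum_order_eq (h : SelfCentral p x) [Fintype {C : ConjClasses G // ∃ g ∈ C.carrier, orderOf g = p}]
    {f : G → ℂ} (hf : IsClassFunction G f) :
    (p : ℂ) * ∑ s ∈ Finset.univ.filter (fun s : G => orderOf s = p), f s =
      (Nat.card G : ℂ) * ∑ C : {C : ConjClasses G // ∃ g ∈ C.carrier, orderOf g = p}, f C.1.out := by
  haveI : Finite (ConjClasses G) := Finite.of_surjective _ ConjClasses.mk_surjective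
  haveI : Fintype (ConjClasses G) := Fintype.ofFinite _
  rw [Finset.mul_sum, Finset.mul_sum,
    ← Finset.sum_fiberwise_of_maps_to (g := ConjClasses.mk)
      (t := Finset.univ.filter fun C : ConjClasses G => ∃ g ∈ C.carrier, orderOf g = p) fun s hs => ?_]
  swap
  · exact Finset.mem_filter.2 ⟨Finset.mem_univ _, s, ConjClasses.mem_carrier_mk,
      (Finset.mem_filter.1 hs).2⟩
  rw [Finset.sum_subtype (Finset.univ.filter fun C : ConjClasses G => ∃ g ∈ C.carrier, orderOf g = p)
    (p := fun C : ConjClasses G => ∃ g ∈ C.carrier, orderOf g = p) (by simp)]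
  refine Finset.sum_congr rfl ?_
  rintro ⟨C, g, hgC, hg⟩ -
  have hC : ConjClasses.mk g = C := ConjClasses.mem_carrier_iff_mk_eq.1 hgC
  have hset : (Finset.univ.filter fun s : G => orderOf s = p).filter (fun s => ConjClasses.mk s = C) =
      Finset.univ.filter (fun s => IsConj g s) := by
    ext s
    simp only [Finset.mem_filter, Finset.mem_univ, true_and, ← hC, ConjClasses.mk_eq_mk_iff_isConj]
    refine ⟨fun hs => hs.2.symm, fun hs => ⟨?_, hs.symm⟩⟩
    obtain ⟨c, hc⟩ := isConj_iff.1 hs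
    rw [← hc, ← hg]
    exact (MulAut.conj c).orderOf_eq g
  have hconst : ∀ s, IsConj g s → f s = f C.out := fun s hs => by
    have h2 : IsConj C.out s :=
      ConjClasses.mk_eq_mk_iff_isConj.1 ((Quotient.out_eq C).trans
        (hC.symm.trans (ConjClasses.mk_eq_mk_iff_isConj.2 hs)))
    obtain ⟨c, hc⟩ := isConj_iff.1 h2
    rw [← hc, hf]
  rw [hset, Finset.sum_congr rfl (g := fun _ => (p : ℂ) * f C.out)
    (fun s hs => by rw [hconst s (by simpa using hs)]), Finset.sum_const, nsmul_eq_mul, ← mul_assoc]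
  congr 1
  rw [← h.index_centralizer hg, Nat.cast_mul]
  congr 2
  exact CfsgLib.BlockLocal.card_conjClass_eq_index g

end SelfCentral

end CfsgLib.ZerosCodegree
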