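import Cfsg.Agent.Lib.ZerosCodegree.BlockTools
import Cfsg.Agent.Lib.BrauerCharacters.Consequences
import Cfsg.Agent.Lib.CharDegreesTheory.BlockDegrees
import Cfsg.Agent.Lib.BlockLocal.WeakOrth

/-!
Degrees that avoid two given primes in groups whose order has small `p`-part.
-/

set_option autoImplicit false
set_option linter.unusedSectionVars false
set_option linter.style.haveILetI false

namespace CfsgLib.ZerosCodegree

open Cfsg CfsgLib.CharTheory CfsgLib.Blocks

universe u
variable {G : Type u} [Group G]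

/-- In the principal block all degrees are prime to `p` when `p ^ 3` does not divide the order. -/
theorem not_dvd_degree_of_mem_principalBlock [Fintype G] {p : ℕ} [Fact p.Prime] {M : Ideal AlgInt}
    [M.IsPrime] (hM : IsPModular p M) (ha : (Nat.card G).factorization p ≤ 2)
    {χ : IrrCharacter G} (hχ : χ ∈ principalBlock M G) : ¬ p ∣ charDegree (χ : G → ℂ) := by
  intro hd
  have hB : IsPBlock M (principalBlock M G) := isPBlock_principalBlock
  have h0 : sInf ((fun ψ : IrrCharacter G => (charDegree (ψ : G → ℂ)).factorization p) ''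
      principalBlock M G) = 0 :=
    Nat.le_zero.1 (Nat.sInf_le ⟨trivIrr G, trivIrr_mem_principalBlock, by
      simp [CfsgLib.CharTheory.trivIrr_apply, charDegree]⟩)
  have hpos : 1 ≤ (charDegree (χ : G → ℂ)).factorization p :=
    (Fact.out : p.Prime).factorization_pos_of_dvd (charDegree_pos χ).ne' hd
  have h := CfsgLib.BrauerCharacters.height_add_two_le
    (CfsgLib.BrauerCharacters.weakOrth hM hB) hM hB hχ (by rw [blockHeight, h0]; omega)
  rw [blockHeight, blockDefect, h0] at h
  omega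

/-- One over a prime is not a local integer above that prime. -/
theorem eq_primePow_of_dvd {n p q r a b c : ℕ} (hp : p.Prime) (hq : q.Prime) (hr : r.Prime)
    (h : n ∣ p ^ a * q ^ b * r ^ c) (hnp : ¬ p ∣ n) (hnr : ¬ r ∣ n) : ∃ k, n = q ^ k := by
  have h1 : n ∣ p ^ a * q ^ b :=
    (Nat.Coprime.pow_right c ((hr.coprime_iff_not_dvd.2 hnr).symm)).dvd_of_dvd_mul_right h
  have h2 : n ∣ q ^ b :=
    (Nat.Coprime.pow_right a ((hp.coprime_iff_not_dvd.2 hnp).symm)).dvd_of_dvd_mul_left h1
  obtain ⟨k, -, hk⟩ := (Nat.dvd_prime_pow hq).1 h2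
  exact ⟨k, hk⟩

/-- A nontrivial group of order `p ^ a * q ^ b * r ^ c`, with `a ≤ 2`, has a nonprincipal character
whose degree is a power of `q`. -/
theorem exists_degree_primePow [Finite G] [Nontrivial G] {p q r a b c : ℕ} (hp : p.Prime)
    (hq : q.Prime) (hr : r.Prime) (hpq : p ≠ q) (hpr : p ≠ r) (ha : a ≤ 2)
    (hG : Nat.card G = p ^ a * q ^ b * r ^ c) :
    ∃ χ : IrrCharacter G, (χ : G → ℂ) ≠ (fun _ => 1) ∧ ∃ k : ℕ, charDegree (χ : G → ℂ) = q ^ k := by
  classical
  haveI : Fintype G := Fintype.ofFinite G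
  haveI : Fintype (IrrCharacter G) := Fintype.ofFinite _
  haveI : Fact p.Prime := ⟨hp⟩
  suffices h : ∃ χ : IrrCharacter G, χ ≠ trivIrr G ∧ ¬ p ∣ charDegree (χ : G → ℂ) ∧
      ¬ r ∣ charDegree (χ : G → ℂ) by
    obtain ⟨χ, hne, hnp, hnr⟩ := h
    exact ⟨χ, fun e => hne (Subtype.ext (e.trans (funext fun g => (trivIrr_apply g).symm))),
      eq_primePow_of_dvd hp hq hr (hG ▸ charDegree_dvd_card χ) hnp hnr⟩
  by_contra hcon
  push Not at hcon
  obtain ⟨M, hM⟩ := CfsgLib.CharDegreesTheory.exists_isPModular hp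
  obtain ⟨M', hM'⟩ := CfsgLib.CharDegreesTheory.exists_isPModular hr
  haveI : M.IsPrime := hM.2.1.isPrime
  haveI : M'.IsPrime := hM'.2.1.isPrime
  rcases Nat.eq_zero_or_pos a with h0 | h0
  · subst h0
    rw [pow_zero, one_mul] at hG
    have hnp : ∀ χ : IrrCharacter G, ¬ p ∣ charDegree (χ : G → ℂ) := fun χ hd => by
      rcases (Nat.Prime.dvd_mul hp).1 (hG ▸ hd.trans (charDegree_dvd_card χ)) with h | h
      · exact hpq ((Nat.prime_dvd_prime_iff_eq hp hq).1 (hp.dvd_of_dvd_pow h))
      · exact hpr ((Nat.prime_dvd_prime_iff_eq hp hr).1 (hp.dvd_of_dvd_pow h))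
    obtain ⟨g, hg⟩ := exists_ne (1 : G)
    have hsum := sum_degree_mul (G := G) g
    rw [if_neg hg, ← Finset.add_sum_erase _ _ (Finset.mem_univ (trivIrr G)), trivIrr_apply,
      trivIrr_apply, one_mul] at hsum
    refine not_memLocalIdeal_one (M := M') ?_
    rw [eq_neg_of_add_eq_zero_left hsum]
    refine memLocalIdeal_neg (memLocalIdeal_sum fun χ hχ => ?_)
    rw [irr_apply_one_eq]
    exact memLocalIdeal_mul_right ((memLocalIdeal_natCast_iff hM' _).2
      (hcon χ (Finset.mem_erase.1 hχ).1 (hnp χ))) (memLocalRing_irr χ g)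
  · have hpG : p ∣ Nat.card G := hG ▸ (dvd_mul_of_dvd_left (dvd_mul_of_dvd_left
      (dvd_pow_self p h0.ne') _) _)
    have hfac : (Nat.card G).factorization p = a := by
      rw [hG, Nat.factorization_mul (mul_ne_zero (pow_ne_zero _ hp.ne_zero) (pow_ne_zero _ hq.ne_zero))
        (pow_ne_zero _ hr.ne_zero), Nat.factorization_mul (pow_ne_zero _ hp.ne_zero)
        (pow_ne_zero _ hq.ne_zero), hp.factorization_pow, hq.factorization_pow, hr.factorization_pow]
      simp [Ne.symm hpq, Ne.symm hpr]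
    obtain ⟨t, ht⟩ := exists_prime_orderOf_dvd_card' p hpG
    have hsum := sum_degree_mul_block_eq_zero hM (isPBlock_principalBlock (G := G)) (g := t)
      (by rw [ht])
    rw [← Finset.add_sum_erase _ _ (Finset.mem_filter.2 ⟨Finset.mem_univ (trivIrr G),
      trivIrr_mem_principalBlock⟩), trivIrr_apply, mul_one,
      show charDegree (trivIrr G : G → ℂ) = 1 by simp [charDegree, trivIrr_apply], Nat.cast_one]
      at hsum
    refine not_memLocalIdeal_one (M := M') ?_
    rw [eq_neg_of_add_eq_zero_left hsum]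
    refine memLocalIdeal_neg (memLocalIdeal_sum fun χ hχ => ?_)
    obtain ⟨hne, hmem⟩ := Finset.mem_erase.1 hχ
    exact memLocalIdeal_mul_right ((memLocalIdeal_natCast_iff hM' _).2
      (hcon χ hne (not_dvd_degree_of_mem_principalBlock hM (hfac.le.trans ha)
        (Finset.mem_filter.1 hmem).2))) (memLocalRing_irr χ t)

end CfsgLib.ZerosCodegree
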